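import Mathlib
import Cfsg.Prelude.Def_OddOrderLocal

/-!
Bender–Glauberman campaign: the statements of the chain, for a fixed group `G`, packaged as
propositions, so that later results can take earlier ones as explicit hypotheses.
`Hyp1430 G` is (definitionally) the statement S1430 for the group `G`, etc.
-/

set_option autoImplicit false

namespace Cfsg.Agent.Lib.Helper47.BG

open Cfsg

/-- Statement S1350 (`M_σ` is a Hall `σ(M)`-subgroup of `M` and of `G`) for the group `G`. -/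
def Hyp1350 (G : Type*) [Group G] : Prop :=
  ∀ (M : Subgroup G), IsCoatom M →
    Cfsg.IsPiHallOf (Cfsg.sigma M) (Cfsg.sigmaCore M) M ∧ Cfsg.IsPiHall (Cfsg.sigma M) (Cfsg.sigmaCore M) ∧
      ∀ N : Subgroup G, M ≤ Subgroup.normalizer (N : Set G) → Cfsg.IsPiHallOf (Cfsg.sigma M) N M →
        N = Cfsg.sigmaCore M

/-- Statement S1405 (BG 10.2, the `M_α` part) for the group `G`. -/
def Hyp1405 (G : Type*) [Group G] : Prop :=
  ∀ (M : Subgroup G), IsCoatom M →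
    Cfsg.IsPiHallOf (Cfsg.alpha M) (Cfsg.alphaCore M) M ∧ Cfsg.IsPiHall (Cfsg.alpha M) (Cfsg.alphaCore M) ∧
      Cfsg.alphaCore M ≤ Cfsg.sigmaCore M ∧ Cfsg.RankLE 2 (↥M ⧸ Cfsg.piCore (Cfsg.alpha M) ↥M) ∧
      Group.IsNilpotent ↥((commutator ↥M).map (QuotientGroup.mk' (Cfsg.piCore (Cfsg.alpha M) ↥M)))

/-- Statement S1430 (BG 13.x: prime action of a Hall `κ(M)`-subgroup) for the group `G`. -/
def Hyp1430 (G : Type*) [Group G] : Prop :=
  ∀ (M : Subgroup G), IsCoatom M → ∀ (K : Subgroup G), Cfsg.IsPiHallOf (Cfsg.kappa M) K M → K ≠ ⊥ →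
    (∀ k ∈ K, k ≠ 1 → Cfsg.sigmaCore M ⊓ Subgroup.centralizer ({k} : Set G) = (Cfsg.sigmaCore M ⊓ Subgroup.centralizer (K : Set G))) ∧
      (∃ U : Subgroup G, IsMulCommutative U ∧ Cfsg.IsPiHallOf {q | q.Prime ∧ q ∉ Cfsg.kappa M ∧ q ∉ Cfsg.sigma M} U M ∧
        K ≤ Subgroup.normalizer (U : Set G) ∧ ∀ k ∈ K, k ≠ 1 → U ⊓ Subgroup.centralizer ({k} : Set G) = ⊥) ∧
      ∀ X : Subgroup G, X ≤ K → (Nat.card X).Prime →
        M ⊓ Subgroup.normalizer (X : Set G) = K ⊔ (Cfsg.sigmaCore M ⊓ Subgroup.centralizer (K : Set G)) ∧ M ⊓ Subgroup.normalizer (K : Set G) = K ⊔ (Cfsg.sigmaCore M ⊓ Subgroup.centralizer (K : Set G)) ∧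
        ∀ Mstar : Subgroup G, IsCoatom Mstar → Subgroup.normalizer (X : Set G) ≤ Mstar → X ≤ Cfsg.sigmaCore Mstar

end Cfsg.Agent.Lib.Helper47.BG
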