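import Mathlib
import Cfsg.Prelude.Def_OddOrderLocal
import Cfsg.Agent.Lib.Helper47.BG.Hyps

/-!
Bender–Glauberman campaign: S1353 (Theorem I: a non-identity element of `K` has no non-identity
fixed point in `U`), from S1430 taken as a hypothesis.
-/

set_option autoImplicit false

namespace Cfsg.Agent.Lib.Helper47.BG

open Cfsg

/-- A non-identity element of a finite group has a power generating a subgroup of prime order. -/
theorem exists_prime_card_le_zpowers {G : Type*} [Group G] [Finite G] {k : G} (hk : k ≠ 1) :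
    ∃ X : Subgroup G, X ≤ Subgroup.zpowers k ∧ (Nat.card X).Prime := by
  have hn1 : orderOf k ≠ 1 := fun h => hk (orderOf_eq_one_iff.mp h)
  have hn0 : orderOf k ≠ 0 := (orderOf_pos k).ne'
  obtain ⟨p, hp, hpd⟩ := Nat.exists_prime_and_dvd hn1
  refine ⟨Subgroup.zpowers (k ^ (orderOf k / p)), ?_, ?_⟩
  · rw [Subgroup.zpowers_le]
    exact Subgroup.pow_mem _ (Subgroup.mem_zpowers k) _
  · rw [Nat.card_zpowers, orderOf_pow_orderOf_div hn0 hpd]
    exact hp

/-- Elements centralizing `k` normalize every subgroup of `⟨k⟩`. -/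
theorem centralizer_singleton_le_normalizer_of_le_zpowers {G : Type*} [Group G] {k : G}
    {X : Subgroup G} (hX : X ≤ Subgroup.zpowers k) :
    Subgroup.centralizer ({k} : Set G) ≤ Subgroup.normalizer (X : Set G) := by
  intro u hu
  have huk : u * k = k * u := by
    have := Subgroup.mem_centralizer_iff.mp hu k (Set.mem_singleton k)
    exact this.symm
  have hcomm : ∀ x ∈ X, u * x * u⁻¹ = x := by
    intro x hx
    obtain ⟨n, rfl⟩ := Subgroup.mem_zpowers_iff.mp (hX hx)
    have : Commute u (k ^ n) := (Commute.zpow_right huk n)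
    rw [this.eq, mul_inv_cancel_right]
  rw [Subgroup.mem_normalizer_iff]
  intro x
  constructor
  · intro hx
    rw [hcomm x hx]; exact hx
  · intro hx
    have := hcomm _ hx
    have h2 : u * x * u⁻¹ = x := by
      have h3 : u * (u * x * u⁻¹) * u⁻¹ = u * x * u⁻¹ := this
      have h4 : u * x * u⁻¹ = u⁻¹ * (u * (u * x * u⁻¹) * u⁻¹) * u := by group
      rw [h3] at h4
      have h5 : u⁻¹ * (u * x * u⁻¹) * u = x := by group
      rw [h5] at h4
      exact h4
    rw [← h2]; exact hx

/-- S1353 from S1430. -/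
theorem s1353_core {G : Type*} [Group G] [Finite G] (h1430 : Hyp1430 G)
    (M : Subgroup G) (hM : IsCoatom M) (K U : Subgroup G) (hKU : Cfsg.IsSigmaDecomposition M K U) :
    ∀ k ∈ K, k ≠ 1 → U ⊓ Subgroup.centralizer ({k} : Set G) = ⊥ := by
  intro k hk hk1
  have hKne : K ≠ ⊥ := by
    intro h
    rw [h, Subgroup.mem_bot] at hk
    exact hk1 hk
  obtain ⟨-, -, h3⟩ := h1430 M hM K hKU.hall hKne
  obtain ⟨X, hXk, hXp⟩ := exists_prime_card_le_zpowers hk1
  have hXK : X ≤ K := hXk.trans ((Subgroup.zpowers_le).mpr hk)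
  obtain ⟨hN, -, -⟩ := h3 X hXK hXp
  rw [eq_bot_iff]
  rintro u ⟨huU, huC⟩
  have huM : u ∈ M := hKU.compl.1 huU
  have huN : u ∈ M ⊓ Subgroup.normalizer (X : Set G) :=
    ⟨huM, centralizer_singleton_le_normalizer_of_le_zpowers hXk huC⟩
  rw [hN] at huN
  have hle : K ⊔ (Cfsg.sigmaCore M ⊓ Subgroup.centralizer (K : Set G)) ≤ K ⊔ Cfsg.sigmaCore M :=
    sup_le_sup_left inf_le_left K
  have : u ∈ U ⊓ (K ⊔ Cfsg.sigmaCore M) := ⟨huU, hle huN⟩
  rw [hKU.compl.2.2.1] at this
  exact this

end Cfsg.Agent.Lib.Helper47.BG
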