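import Mathlib
import Cfsg.Prelude.Def_OddOrderLocal
import Cfsg.Agent.Lib.Helper47.BG.Hyps
import Cfsg.Agent.Lib.Helper67.BG.Basics
import Cfsg.Agent.Lib.Helper1.SZInternal

/-!
Bender–Glauberman campaign: S1352 (Theorem I: existence of the standard factorisation
`M = K U M_σ` and normality of `U M_σ`), from S1350 and S1430 taken as hypotheses.
-/

set_option autoImplicit false

namespace Cfsg.Agent.Lib.Helper47.BG

open Cfsg
open scoped Pointwise

/-- For any standard factorisation `M = K U M_σ`, the subgroup `U M_σ` is normal in `M`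
(immediate from the definition: `K` normalizes `U`). -/
theorem sigmaDecomposition_normal {G : Type*} [Group G]
    (M K U : Subgroup G) (hKU : Cfsg.IsSigmaDecomposition M K U) :
    M ≤ Subgroup.normalizer ((U ⊔ Cfsg.sigmaCore M : Subgroup G) : Set G) := by
  have hS := Cfsg.Agent.Lib.Helper67.BG.sigmaCore_normalizer M
  have hKM : K ≤ M := hKU.hall.1
  have hUM : U ≤ M := hKU.compl.1
  have hUN : U ≤ Subgroup.normalizer ((U ⊔ Cfsg.sigmaCore M : Subgroup G) : Set G) :=
    le_sup_left.trans Subgroup.le_normalizer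
  have hSN : Cfsg.sigmaCore M ≤ Subgroup.normalizer ((U ⊔ Cfsg.sigmaCore M : Subgroup G) : Set G) :=
    le_sup_right.trans Subgroup.le_normalizer
  have hKN : K ≤ Subgroup.normalizer ((U ⊔ Cfsg.sigmaCore M : Subgroup G) : Set G) :=
    (le_inf hKU.normal (hKM.trans hS)).trans
      (Subgroup.normalizer_inf_normalizer_le_normalizer_sup U (Cfsg.sigmaCore M))
  intro m hm
  obtain ⟨u, hu, b, hb, rfl⟩ := hKU.compl.2.2.2 m hm
  exact Subgroup.mul_mem _ (hUN hu) ((sup_le hKN hSN) hb)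

/-- S1352 from S1350 and S1430. -/
theorem s1352_core {G : Type*} [Group G] [Finite G]
    (h1350 : Hyp1350 G) (h1430 : Hyp1430 G)
    (M : Subgroup G) (hM : IsCoatom M) (K : Subgroup G)
    (hKc : IsCyclic K) (hK : Cfsg.IsPiHallOf (Cfsg.kappa M) K M) :
    (∃ U : Subgroup G, Cfsg.IsSigmaDecomposition M K U) ∧
      ∀ U : Subgroup G, Cfsg.IsSigmaDecomposition M K U →
        M ≤ Subgroup.normalizer ((U ⊔ Cfsg.sigmaCore M : Subgroup G) : Set G) := by
  refine ⟨?_, fun U hU => sigmaDecomposition_normal M K U hU⟩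
  obtain ⟨hSHall, -, -⟩ := h1350 M hM
  by_cases hK1 : K = ⊥
  · obtain ⟨E, hE⟩ := Cfsg.Agent.Lib.Helper67.BG.exists_compl_sigmaCore M hSHall
    refine ⟨E, ⟨hKc, hK, ?_, ?_⟩⟩
    · rw [hK1, bot_sup_eq]; exact hE
    · rw [hK1]; exact bot_le
  · obtain ⟨-, ⟨U, -, hUHall, hKU, -⟩, -⟩ := h1430 M hM K hK hK1
    set S := Cfsg.sigmaCore M with hSdef
    have hSM : S ≤ M := Cfsg.Agent.Lib.Helper67.BG.sigmaCore_le M
    have hMS : M ≤ Subgroup.normalizer (S : Set G) :=
      Cfsg.Agent.Lib.Helper67.BG.sigmaCore_normalizer M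
    have hKM : K ≤ M := hK.1
    have hUM : U ≤ M := hUHall.1
    have hSσ : ∀ p : ℕ, p.Prime → p ∣ Nat.card S → p ∈ Cfsg.sigma M :=
      Cfsg.Agent.Lib.Helper67.BG.sigmaCore_isPi M
    -- coprimality of |K| and |S|
    have hcopKS : (Nat.card K).Coprime (Nat.card S) := by
      rw [Nat.coprime_iff_gcd_eq_one]
      by_contra hne
      obtain ⟨p, hp, hdvd⟩ := Nat.exists_prime_and_dvd hne
      have h1 : p ∈ Cfsg.kappa M := hK.2.1 p hp (hdvd.trans (Nat.gcd_dvd_left _ _))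
      have h2 : p ∈ Cfsg.sigma M := hSσ p hp (hdvd.trans (Nat.gcd_dvd_right _ _))
      exact h1.2.2.1 h2
    have hcardSK : Nat.card (S ⊔ K : Subgroup G) = Nat.card S * Nat.card K :=
      Cfsg.Agent.Lib.Helper1.card_sup_of_normalizer_coprime S K (hKM.trans hMS) hcopKS
    have hcopU : (Nat.card U).Coprime (Nat.card (K ⊔ S : Subgroup G)) := by
      rw [sup_comm, hcardSK, Nat.coprime_iff_gcd_eq_one]
      by_contra hne
      obtain ⟨p, hp, hdvd⟩ := Nat.exists_prime_and_dvd hne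
      have h1 := hUHall.2.1 p hp (hdvd.trans (Nat.gcd_dvd_left _ _))
      rcases (Nat.Prime.dvd_mul hp).mp (hdvd.trans (Nat.gcd_dvd_right _ _)) with h | h
      · exact h1.2.2 (hSσ p hp h)
      · exact h1.2.1 (hK.2.1 p hp h)
    have hinf : U ⊓ (K ⊔ S) = ⊥ := (Subgroup.disjoint_of_coprime_natCard hcopU).eq_bot
    -- M is generated by U, K, S
    have hgen : M ≤ U ⊔ (K ⊔ S) := by
      rw [← Subgroup.relIndex_eq_one]
      by_contra hne
      obtain ⟨p, hp, hdvd⟩ := Nat.exists_prime_and_dvd hne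
      by_cases hσ : p ∈ Cfsg.sigma M
      · exact hSHall.2.2 p hp hσ
          (hdvd.trans (Subgroup.relIndex_dvd_of_le_left M (le_sup_right.trans le_sup_right)))
      · by_cases hκ : p ∈ Cfsg.kappa M
        · exact hK.2.2 p hp hκ
            (hdvd.trans (Subgroup.relIndex_dvd_of_le_left M (le_sup_left.trans le_sup_right)))
        · exact hUHall.2.2 p hp ⟨hp, hκ, hσ⟩
            (hdvd.trans (Subgroup.relIndex_dvd_of_le_left M le_sup_left))
    have hKN : K ≤ Subgroup.normalizer ((U ⊔ S : Subgroup G) : Set G) :=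
      (le_inf hKU (hKM.trans hMS)).trans
        (Subgroup.normalizer_inf_normalizer_le_normalizer_sup U S)
    refine ⟨U, ⟨hKc, hK, ⟨hUM, sup_le hKM hSM, hinf, ?_⟩, hKU⟩⟩
    intro m hm
    have hm' : m ∈ (U ⊔ S) ⊔ K := by
      have : U ⊔ (K ⊔ S) = (U ⊔ S) ⊔ K := by
        rw [sup_comm K S, sup_assoc]
      rw [← this]; exact hgen hm
    have h1 : ((((U ⊔ S) ⊔ K : Subgroup G)) : Set G) = ((U ⊔ S : Subgroup G) : Set G) * (K : Set G) :=
      Subgroup.coe_mul_of_right_le_normalizer_left (U ⊔ S) K hKN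
    have h2 : (((U ⊔ S : Subgroup G)) : Set G) = (U : Set G) * (S : Set G) :=
      Subgroup.coe_mul_of_left_le_normalizer_right U S (hUM.trans hMS)
    have hm2 : m ∈ ((((U ⊔ S) ⊔ K : Subgroup G)) : Set G) := hm'
    rw [h1] at hm2
    obtain ⟨n, hn, k, hk, rfl⟩ := Set.mem_mul.mp hm2
    rw [h2] at hn
    obtain ⟨u, hu, s, hs, rfl⟩ := Set.mem_mul.mp hn
    refine ⟨u, hu, s * k, ?_, by rw [mul_assoc]⟩
    exact Subgroup.mul_mem _ (Subgroup.mem_sup_right hs) (Subgroup.mem_sup_left hk)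

end Cfsg.Agent.Lib.Helper47.BG
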