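import Mathlib
import Cfsg.Prelude.Def_OddOrderLocal
import Cfsg.Statements.S1350
import Cfsg.Statements.S1351
import Cfsg.Statements.S1352
import Cfsg.Statements.S1355
import Cfsg.Statements.S1364
import Cfsg.Statements.S1365
import Cfsg.Statements.S1366
import Cfsg.Statements.S1368
import Cfsg.Statements.S1369
import Cfsg.Statements.S1370
import Cfsg.Statements.S1380
import Cfsg.Statements.S1381
import Cfsg.Statements.S1382
import Cfsg.Statements.S1383
import Cfsg.Agent.Lib.Helper67.BG.Basics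

/-!
Bender–Glauberman campaign: statement S1385 (the structure theorem for the maximal subgroups of a
minimal simple group of odd order), assembled from earlier statements of the chain taken as
explicit hypotheses: with `M` a maximal subgroup not of Type I, `M = K U M_σ`, `K* = C_{M_σ}(K)` and
partner `M*`, take `S = M`, `T = M*`, `W₁ = K`, `W₂ = K*`.
-/

set_option autoImplicit false

namespace Cfsg.Agent.Lib.Helper47.BG

open Cfsg
open scoped Pointwise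

/-- In a standard factorisation, `K` meets `M_σ` trivially. -/
theorem sigmaDecomposition_inf_sigmaCore {G : Type*} [Group G] [Finite G]
    (M K U : Subgroup G) (hKU : Cfsg.IsSigmaDecomposition M K U) :
    K ⊓ Cfsg.sigmaCore M = ⊥ := by
  have hSσ := Cfsg.Agent.Lib.Helper67.BG.sigmaCore_isPi M
  have hcop : (Nat.card K).Coprime (Nat.card (Cfsg.sigmaCore M)) := by
    rw [Nat.coprime_iff_gcd_eq_one]
    by_contra hne
    obtain ⟨p, hp, hdvd⟩ := Nat.exists_prime_and_dvd hne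
    have h1 : p ∈ Cfsg.kappa M := hKU.hall.2.1 p hp (hdvd.trans (Nat.gcd_dvd_left _ _))
    have h2 : p ∈ Cfsg.sigma M := hSσ p hp (hdvd.trans (Nat.gcd_dvd_right _ _))
    exact h1.2.2.1 h2
  exact (Subgroup.disjoint_of_coprime_natCard hcop).eq_bot

/-- In a standard factorisation `M = K U M_σ`, the subgroup `U M_σ` is a complement of `K`. -/
theorem sigmaDecomposition_complIn {G : Type*} [Group G] [Finite G]
    (M K U : Subgroup G) (hKU : Cfsg.IsSigmaDecomposition M K U) :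
    Cfsg.IsComplIn (U ⊔ Cfsg.sigmaCore M) K M := by
  have hSM := Cfsg.Agent.Lib.Helper67.BG.sigmaCore_le M
  have hMS := Cfsg.Agent.Lib.Helper67.BG.sigmaCore_normalizer M
  have hKM : K ≤ M := hKU.hall.1
  have hUM : U ≤ M := hKU.compl.1
  have hKS := sigmaDecomposition_inf_sigmaCore M K U hKU
  obtain ⟨S, hSdef⟩ : ∃ S : Subgroup G, S = Cfsg.sigmaCore M := ⟨_, rfl⟩
  have hcompl := hKU.compl
  rw [← hSdef] at hSM hMS hKS hcompl ⊢
  have h2 : (((U ⊔ S : Subgroup G)) : Set G) = (U : Set G) * (S : Set G) :=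
    Subgroup.coe_mul_of_left_le_normalizer_right U S (hUM.trans hMS)
  have h3 : (((S ⊔ K : Subgroup G)) : Set G) = (S : Set G) * (K : Set G) :=
    Subgroup.coe_mul_of_right_le_normalizer_left S K (hKM.trans hMS)
  refine ⟨sup_le hUM hSM, hKM, ?_, ?_⟩
  · rw [eq_bot_iff]
    intro x hx
    have hx1 : x ∈ (((U ⊔ S : Subgroup G)) : Set G) := hx.1
    rw [h2] at hx1
    obtain ⟨u, hu, s, hs, rfl⟩ := Set.mem_mul.mp hx1
    have hu' : u ∈ K ⊔ S := by
      have : u = (u * s) * s⁻¹ := by group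
      rw [this]
      exact Subgroup.mul_mem _ (Subgroup.mem_sup_left hx.2)
        (Subgroup.mem_sup_right (S.inv_mem hs))
    have hu1 : u = 1 := by
      have : u ∈ U ⊓ (K ⊔ S) := ⟨hu, hu'⟩
      rw [hcompl.2.2.1] at this
      exact Subgroup.mem_bot.mp this
    subst hu1
    rw [one_mul] at hx ⊢
    have : s ∈ K ⊓ S := ⟨hx.2, hs⟩
    rw [hKS] at this
    exact this
  · intro m hm
    obtain ⟨u, hu, b, hb, rfl⟩ := hcompl.2.2.2 m hm
    have hb' : b ∈ (((S ⊔ K : Subgroup G)) : Set G) := by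
      have : K ⊔ S = S ⊔ K := sup_comm _ _
      rw [← this]; exact hb
    rw [h3] at hb'
    obtain ⟨s, hs, k, hk, rfl⟩ := Set.mem_mul.mp hb'
    refine ⟨u * s, ?_, k, hk, by rw [mul_assoc]⟩
    exact Subgroup.mul_mem _ (Subgroup.mem_sup_left hu) (Subgroup.mem_sup_right hs)

/-- A standard factorisation with `K = 1 = U` would force `M = M_σ`. -/
theorem sigmaDecomposition_le_of_bot {G : Type*} [Group G]
    (M K U : Subgroup G) (hKU : Cfsg.IsSigmaDecomposition M K U) (hK : K = ⊥) (hU : U = ⊥) :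
    M ≤ Cfsg.sigmaCore M := by
  intro m hm
  obtain ⟨u, hu, b, hb, rfl⟩ := hKU.compl.2.2.2 m hm
  rw [hU, Subgroup.mem_bot] at hu
  rw [hK, bot_sup_eq] at hb
  rw [hu, one_mul]
  exact hb

/-- A nontrivial Hall `κ(M)`-subgroup shows that `κ(M)` is nonempty. -/
theorem kappa_nonempty_of_ne_bot {G : Type*} [Group G] [Finite G]
    (M K : Subgroup G) (hK : Cfsg.IsPiHallOf (Cfsg.kappa M) K M) (hK1 : K ≠ ⊥) :
    (Cfsg.kappa M).Nonempty := by
  have hcard : Nat.card K ≠ 1 := fun h => hK1 (Subgroup.card_eq_one.mp h)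
  obtain ⟨p, hp, hdvd⟩ := Nat.exists_prime_and_dvd hcard
  exact ⟨p, hK.2.1 p hp hdvd⟩

/-- Statement S1385 from the earlier statements of the chain. -/
theorem s1385_core {G : Type*} [Group G] [Finite G] (hG : Cfsg.IsMinSimpleOddOrder G)
    (h1351 : type_of% (@Cfsg.CfsgFrozen.S1351 G _ _ hG))
    (h1352 : type_of% (@Cfsg.CfsgFrozen.S1352 G _ _ hG))
    (h1355 : type_of% (@Cfsg.CfsgFrozen.S1355 G _ _ hG))
    (h1364 : type_of% (@Cfsg.CfsgFrozen.S1364 G _ _ hG))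
    (h1365 : type_of% (@Cfsg.CfsgFrozen.S1365 G _ _ hG))
    (h1366 : type_of% (@Cfsg.CfsgFrozen.S1366 G _ _ hG))
    (h1368 : type_of% (@Cfsg.CfsgFrozen.S1368 G _ _ hG))
    (h1369 : type_of% (@Cfsg.CfsgFrozen.S1369 G _ _ hG))
    (h1370 : type_of% (@Cfsg.CfsgFrozen.S1370 G _ _ hG))
    (h1380 : type_of% (@Cfsg.CfsgFrozen.S1380 G _ _ hG))
    (h1381 : type_of% (@Cfsg.CfsgFrozen.S1381 G _ _ hG))
    (h1382 : type_of% (@Cfsg.CfsgFrozen.S1382 G _ _ hG))
    (h1383 : type_of% (@Cfsg.CfsgFrozen.S1383 G _ _ hG)) :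
    (∀ M : Subgroup G, IsCoatom M → Cfsg.IsOfTypeI M) ∨
      ∃ W₁ W₂ S T : Subgroup G, Cfsg.IsSelfNormalizingCyclic W₁ W₂ ∧ IsCoatom S ∧ IsCoatom T ∧
        Cfsg.IsComplIn ⁅S, S⁆ W₁ S ∧ Cfsg.IsComplIn ⁅T, T⁆ W₂ T ∧ S ⊓ T = W₁ ⊔ W₂ ∧
        (Cfsg.IsOfTypeII S ∨ Cfsg.IsOfTypeII T) ∧
        (Cfsg.IsOfTypeII S ∨ Cfsg.IsOfTypeIII S ∨ Cfsg.IsOfTypeIV S ∨ Cfsg.IsOfTypeV S) ∧
        (Cfsg.IsOfTypeII T ∨ Cfsg.IsOfTypeIII T ∨ Cfsg.IsOfTypeIV T ∨ Cfsg.IsOfTypeV T) ∧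
        ∀ M : Subgroup G, IsCoatom M → Cfsg.IsOfTypeI M ∨
          ∃ g : G, M = S.map (MulAut.conj g).toMonoidHom ∨ M = T.map (MulAut.conj g).toMonoidHom := by
  -- general facts about standard factorisations
  have hdec : ∀ H : Subgroup G, IsCoatom H → ∃ K U : Subgroup G, Cfsg.IsSigmaDecomposition H K U := by
    intro H hH
    obtain ⟨⟨K, hK⟩, hKc⟩ := h1351 H hH
    obtain ⟨⟨U, hKU⟩, -⟩ := h1352 H hH K (hKc K hK) hK
    exact ⟨K, U, hKU⟩
  have hnontriv : ∀ (H K U : Subgroup G), IsCoatom H → Cfsg.IsSigmaDecomposition H K U →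
      K = ⊥ → U ≠ ⊥ := by
    intro H K U hH hKU hK hU
    have h1 := sigmaDecomposition_le_of_bot H K U hKU hK hU
    obtain ⟨-, -, h2, h3, -⟩ := h1355 H hH
    exact (lt_irrefl _ (lt_of_le_of_lt (h1.trans h2) h3))
  have htypes : ∀ (H K U : Subgroup G), IsCoatom H → Cfsg.IsSigmaDecomposition H K U → K ≠ ⊥ →
      (Cfsg.IsOfTypeII H ∨ Cfsg.IsOfTypeIII H ∨ Cfsg.IsOfTypeIV H ∨ Cfsg.IsOfTypeV H) := by
    intro H K U hH hKU hK1
    by_cases hU : U = ⊥
    · by_cases hF : Cfsg.fittingHallOf H = Cfsg.sigmaCore H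
      · exact Or.inr (Or.inr (Or.inr ((h1383 H hH K U hKU).mpr ⟨hK1, hU, hF⟩)))
      · rcases (h1382 H hH K U hKU).mpr ⟨hK1, hU, hF⟩ with h | h
        · exact Or.inr (Or.inl h)
        · exact Or.inr (Or.inr (Or.inl h))
    · exact Or.inl ((h1381 H hH K U hKU).mpr ⟨hK1, hU⟩)
  by_cases hall : ∀ M : Subgroup G, IsCoatom M → Cfsg.IsOfTypeI M
  · exact Or.inl hall
  right
  push Not at hall
  obtain ⟨M, hM, hMI⟩ := hall
  obtain ⟨K, U, hKU⟩ := hdec M hM
  have hK1 : K ≠ ⊥ := by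
    intro hK
    exact hMI ((h1380 M hM K U hKU).mpr ⟨hK, hnontriv M K U hM hKU hK⟩)
  obtain ⟨Ms, ⟨hMs, hKst, hKstH⟩, -⟩ := h1366 M hM K U hKU hK1
  obtain ⟨hKscyc, hKs1, -, -⟩ := h1364 M hM K U hKU hK1
  obtain ⟨hMMs, hZcyc⟩ := h1368 M hM K U hKU hK1 Ms hMs hKst hKstH
  obtain ⟨hTI, hNZ⟩ := h1370 M hM K U hKU hK1
  obtain ⟨hII, hconj⟩ := h1369 M hM K U hKU hK1 Ms hMs hKst hKstH
  obtain ⟨hder, -⟩ := h1365 M hM K U hKU hK1
  -- name `K* = C_{M_σ}(K)`
  obtain ⟨Ks, hKsdef⟩ : ∃ Ks : Subgroup G,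
      Ks = Cfsg.sigmaCore M ⊓ Subgroup.centralizer (K : Set G) := ⟨_, rfl⟩
  rw [← hKsdef] at hKstH hKscyc hKs1 hMMs hZcyc hTI hNZ hII
  obtain ⟨⟨Us, hKUs⟩, -⟩ := h1352 Ms hMs Ks hKscyc hKstH
  obtain ⟨hders, -⟩ := h1365 Ms hMs Ks Us hKUs hKs1
  have hKKs : K ⊓ Ks = ⊥ := by
    rw [eq_bot_iff, ← sigmaDecomposition_inf_sigmaCore M K U hKU, hKsdef]
    exact inf_le_inf_left _ inf_le_left
  have hcommZ : ∀ a ∈ K ⊔ Ks, ∀ b ∈ K ⊔ Ks, a * b = b * a := by
    intro a ha b hb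
    have := (IsCyclic.isMulCommutative (α := ↥(K ⊔ Ks))).is_comm.comm ⟨a, ha⟩ ⟨b, hb⟩
    exact congrArg Subtype.val this
  refine ⟨K, Ks, M, Ms, ⟨hK1, hKs1, hKKs, ?_, hZcyc, ?_⟩, hM, hMs, ?_, ?_, hMMs, ?_,
    htypes M K U hM hKU hK1, htypes Ms Ks Us hMs hKUs hKs1, ?_⟩
  · -- `K` and `K*` commute elementwise
    intro a ha b hb
    rw [hKsdef] at hb
    exact (Subgroup.mem_centralizer_iff.mp hb.2) a ha
  · -- normalizers of nonempty subsets of `Ẑ`
    intro X hX hXne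
    obtain ⟨x, hx⟩ := hXne
    ext g
    constructor
    · intro hg
      rw [← hNZ]
      by_contra hgN
      have hgx : g * x * g⁻¹ ∈ X := (Subgroup.mem_set_normalizer_iff.mp hg x).mp hx
      have hx1 : x = 1 := hTI g hgN x (hX hx) (hX hgx)
      have hxK : x ∉ (K : Set G) := fun h => (hX hx).2 (Or.inl h)
      exact hxK (by rw [hx1]; exact K.one_mem)
    · intro hg
      rw [Subgroup.mem_set_normalizer_iff]
      intro n
      constructor
      · intro hn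
        have hnZ : n ∈ K ⊔ Ks := (hX hn).1
        have : g * n * g⁻¹ = n := by
          rw [hcommZ g hg n hnZ]; group
        rw [this]; exact hn
      · intro hn
        have hyZ : g * n * g⁻¹ ∈ K ⊔ Ks := (hX hn).1
        have hnZ : n ∈ K ⊔ Ks := by
          have : n = g⁻¹ * (g * n * g⁻¹) * g := by group
          rw [this]
          exact Subgroup.mul_mem _ (Subgroup.mul_mem _ (Subgroup.inv_mem _ hg) hyZ) hg
        have : g * n * g⁻¹ = n := by
          rw [hcommZ g hg n hnZ]; group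
        rw [this] at hn; exact hn
  · rw [hder]; exact sigmaDecomposition_complIn M K U hKU
  · rw [hders]; exact sigmaDecomposition_complIn Ms Ks Us hKUs
  · rcases hII with hU | hUs
    · exact Or.inl ((h1381 M hM K U hKU).mpr ⟨hK1, hU⟩)
    · exact Or.inr ((h1381 Ms hMs Ks Us hKUs).mpr ⟨hKs1, hUs Us hKUs⟩)
  · intro H hH
    obtain ⟨KH, UH, hKUH⟩ := hdec H hH
    by_cases hKH : KH = ⊥
    · exact Or.inl ((h1380 H hH KH UH hKUH).mpr ⟨hKH, hnontriv H KH UH hH hKUH hKH⟩)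
    · exact Or.inr (hconj H hH (kappa_nonempty_of_ne_bot H KH hKUH.hall hKH))

end Cfsg.Agent.Lib.Helper47.BG
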