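import Mathlib
import Cfsg.Prelude.Def_OddOrderLocal
import Cfsg.Agent.Lib.Helper47.BG.Hyps
import Cfsg.Agent.Lib.Helper24.BG.S1431Defs

/-!
Bender–Glauberman campaign, team project S1431 (BG Theorem 14.2), package D:
`M = M_σ · M' · K` for a nontrivial Hall `κ(M)`-subgroup `K` of a maximal subgroup `M`.
-/

set_option autoImplicit false

namespace Cfsg.Agent.Lib.Helper47.BG

open Cfsg
open scoped commutatorElement

universe u

/-- An abelian subgroup `U` normalized by an element `k` with `C_U(k) = 1` consists of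
commutators `⁅k, u⁆`, `u ∈ U`. -/
theorem le_commutator_of_fixed_point_free {G : Type*} [Group G] [Finite G]
    (U : Subgroup G) (hUab : IsMulCommutative U) (k : G)
    (hk : k ∈ Subgroup.normalizer (U : Set G))
    (hfix : U ⊓ Subgroup.centralizer ({k} : Set G) = ⊥) :
    ∀ u ∈ U, ∃ v ∈ U, u = ⁅k, v⁆ := by
  classical
  have hconj : ∀ v : G, v ∈ U → k * v * k⁻¹ ∈ U := fun v hv =>
    (Subgroup.mem_normalizer_iff.mp hk v).mp hv
  have hcomm : ∀ a b : G, a ∈ U → b ∈ U → a * b = b * a := by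
    intro a b ha hb
    have := hUab.is_comm.comm (⟨a, ha⟩ : U) ⟨b, hb⟩
    exact congrArg Subtype.val this
  let f : U → U := fun v => ⟨⁅k, (v : G)⁆, by
    have : ⁅k, (v : G)⁆ = (k * (v : G) * k⁻¹) * (v : G)⁻¹ := rfl
    rw [this]
    exact U.mul_mem (hconj _ v.2) (U.inv_mem v.2)⟩
  have hinj : Function.Injective f := by
    intro v w hvw
    have h1 : ⁅k, (v : G)⁆ = ⁅k, (w : G)⁆ := congrArg Subtype.val hvw
    have h1' : (k * (v : G) * k⁻¹) * (v : G)⁻¹ = (k * (w : G) * k⁻¹) * (w : G)⁻¹ := h1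
    -- z := w⁻¹ v is centralized by k
    have hz : (w : G)⁻¹ * (v : G) ∈ U := U.mul_mem (U.inv_mem w.2) v.2
    have hkz : k * ((w : G)⁻¹ * (v : G)) * k⁻¹ = (w : G)⁻¹ * (v : G) := by
      have e1 : k * ((w : G)⁻¹ * (v : G)) * k⁻¹ = (k * (w : G) * k⁻¹)⁻¹ * (k * (v : G) * k⁻¹) := by
        group
      rw [e1]
      -- a := k v k⁻¹, a' := k w k⁻¹ in U, a v⁻¹ = a' w⁻¹
      have ha : k * (v : G) * k⁻¹ ∈ U := hconj _ v.2
      have ha' : k * (w : G) * k⁻¹ ∈ U := hconj _ w.2
      have e2 : k * (v : G) * k⁻¹ = (k * (w : G) * k⁻¹) * (w : G)⁻¹ * (v : G) := by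
        rw [← h1']; group
      rw [e2]
      group
    have hzc : (w : G)⁻¹ * (v : G) ∈ Subgroup.centralizer ({k} : Set G) := by
      rw [Subgroup.mem_centralizer_iff]
      intro g hg
      rw [Set.mem_singleton_iff] at hg
      subst hg
      have : g * ((w : G)⁻¹ * (v : G)) = (w : G)⁻¹ * (v : G) * g := by
        calc g * ((w : G)⁻¹ * (v : G)) = (g * ((w : G)⁻¹ * (v : G)) * g⁻¹) * g := by group
          _ = (w : G)⁻¹ * (v : G) * g := by rw [hkz]
      exact this
    have hz1 : (w : G)⁻¹ * (v : G) = 1 := by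
      have : (w : G)⁻¹ * (v : G) ∈ U ⊓ Subgroup.centralizer ({k} : Set G) := ⟨hz, hzc⟩
      rw [hfix] at this
      exact Subgroup.mem_bot.mp this
    have : (v : G) = (w : G) := by
      have := congrArg (fun t => (w : G) * t) hz1
      simpa using this
    exact Subtype.ext this
  have hsurj : Function.Surjective f := Finite.surjective_of_injective hinj
  intro u hu
  obtain ⟨v, hv⟩ := hsurj ⟨u, hu⟩
  exact ⟨v, v.2, (congrArg Subtype.val hv).symm⟩

/-- Package D of S1431: `M = M_σ · M' · K` for a nontrivial Hall `κ(M)`-subgroup `K`. -/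
theorem lemDecomp : Cfsg.Agent.Lib.Helper24.BG31.LemDecomp.{u} := by
  intro G _ _ hG h1350 h1430 M hM K hK hK1
  obtain ⟨hSHall, -, -⟩ := h1350 M hM
  obtain ⟨-, ⟨U, hUab, hUHall, hKU, hUfix⟩, -⟩ := h1430 M hM K hK hK1
  have hKM : K ≤ M := hK.1
  have hUM : U ≤ M := hUHall.1
  -- pick `k ≠ 1` in `K`
  obtain ⟨k, hkK, hk1⟩ : ∃ k ∈ K, k ≠ 1 := by
    by_contra hcon
    push Not at hcon
    exact hK1 ((Subgroup.eq_bot_iff_forall K).mpr hcon)
  have hUder : U ≤ ⁅M, M⁆ := by
    intro u hu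
    obtain ⟨v, hv, rfl⟩ :=
      le_commutator_of_fixed_point_free U hUab k (hKU hkK) (hUfix k hkK hk1) u hu
    exact Subgroup.commutator_mem_commutator (hKM hkK) (hUM hv)
  -- `M` is generated by `U`, `K`, `M_σ`
  have hgen : M ≤ U ⊔ (K ⊔ Cfsg.sigmaCore M) := by
    rw [← Subgroup.relIndex_eq_one]
    by_contra hne
    obtain ⟨p, hp, hdvd⟩ := Nat.exists_prime_and_dvd hne
    by_cases hσ : p ∈ Cfsg.sigma M
    · exact hSHall.2.2 p hp hσ
        (hdvd.trans (Subgroup.relIndex_dvd_of_le_left M (le_sup_right.trans le_sup_right)))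
    · by_cases hκ : p ∈ Cfsg.kappa M
      · exact hK.2.2 p hp hκ
          (hdvd.trans (Subgroup.relIndex_dvd_of_le_left M (le_sup_left.trans le_sup_right)))
      · exact hUHall.2.2 p hp ⟨hp, hκ, hσ⟩
          (hdvd.trans (Subgroup.relIndex_dvd_of_le_left M le_sup_left))
  refine hgen.trans (sup_le ?_ (sup_le ?_ le_sup_left))
  · exact hUder.trans (le_sup_left.trans le_sup_right)
  · exact le_sup_right.trans le_sup_right

end Cfsg.Agent.Lib.Helper47.BG
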